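import Cfsg.Agent.Lib.Helper19.Suzc.Main
import Cfsg.Agent.Lib.Helper19.TC2P

/-! Generated file: certificates for the order of a presented group. -/

set_option autoImplicit false
set_option maxRecDepth 1000000

namespace Cfsg.Agent.Lib.Helper19.OrdSuz.CX

open Cfsg.Agent.Lib.Helper19.TCS (evn evn_rot evn_rev evn_pair AllS forall_of_allS lift_rels mk_eq_lift cox_swap shapeI prod_rep index_of_equiv orbit_ncard orbit_image ncard_interval fix_of_closure RC)
open Cfsg.Agent.Lib.Helper19.TC2
open Cfsg.Spor Cfsg.Agent.Lib.Helper19.PresSuz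
open Cfsg.Agent.Lib.Helper19.Suzc


def cn (i : ℕ) : ℕ := if i < 1 then 0 else if i < 417 then 1 else 2

theorem cn_lt (i : ℕ) : cn i < 3 := by
  unfold cn
  split_ifs <;> omega

def col (i : Fin cB.N) : Fin 3 := ⟨cn i.1, cn_lt i.1⟩

def mm : Fin 3 → ℕ := ![1, 416, 1365]

def base : Fin 3 → Fin cB.N := ![⟨0, by decide⟩, ⟨1, by decide⟩, ⟨417, by decide⟩]

theorem hb : ∀ i : Fin cB.N, ∃ h ∈ HH, ψ h (base (col i)) = i := by
  intro i
  have hi : i.1 < 1782 := i.2
  rcases Nat.lt_or_ge i.1 1 with h0 | h0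
  · have e : col i = ⟨0, by decide⟩ := Fin.ext (by show cn i.1 = 0; unfold cn; split_ifs <;> omega)
    rw [e]
    exact ⟨1, HH.one_mem, by rw [map_one]; apply Fin.ext; show 0 = i.1; omega⟩
  rcases Nat.lt_or_ge i.1 417 with h1 | h1
  · have e : col i = ⟨1, by decide⟩ := Fin.ext (by show cn i.1 = 1; unfold cn; split_ifs <;> omega)
    rw [e]
    have hm : i ∈ {i : Fin cB.N | 1 ≤ i.1 ∧ i.1 < 417} := ⟨by omega, by omega⟩
    rw [← orb_0] at hm
    exact hm
  have e : col i = ⟨2, by decide⟩ := Fin.ext (by show cn i.1 = 2; unfold cn; split_ifs <;> omega)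
  rw [e]
  have hm : i ∈ {i : Fin cB.N | 417 ≤ i.1 ∧ i.1 < 1782} := ⟨by omega, by omega⟩
  rw [← orb_1] at hm
  exact hm

theorem hm : ∀ c, (Finset.univ.filter (fun i => col i = c)).card = mm c := by
  rintro ⟨c, hc⟩
  interval_cases c
  · exact card_col (lo := 0) (hi := 1) (by decide) (fun i => by
      have hi : i.1 < 1782 := i.2
      rw [Fin.ext_iff]
      show cn i.1 = 0 ↔ _
      unfold cn
      constructor
      · intro h
        split_ifs at h <;> omega
      · intro h
        split_ifs <;> omega)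
  · exact card_col (lo := 1) (hi := 417) (by decide) (fun i => by
      have hi : i.1 < 1782 := i.2
      rw [Fin.ext_iff]
      show cn i.1 = 1 ↔ _
      unfold cn
      constructor
      · intro h
        split_ifs at h <;> omega
      · intro h
        split_ifs <;> omega)
  · exact card_col (lo := 417) (hi := 1782) (by decide) (fun i => by
      have hi : i.1 < 1782 := i.2
      rw [Fin.ext_iff]
      show cn i.1 = 2 ↔ _
      unfold cn
      constructor
      · intro h
        split_ifs at h <;> omega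
      · intro h
        split_ifs <;> omega)

theorem harith : ∀ S : Finset (Fin 3), col z ∈ S → (∑ c ∈ S, mm c) ∣ cB.N →
    S = {col z} ∨ S = Finset.univ := by decide +kernel

theorem stab : ∀ x, ψ x z = z → x ∈ HH :=
  stab_mem (P := cert) (FIN := tFIN) (L := 7) ψ z rfl (fun k _ => el_sq k) hψ hcov (loop_all link_ok) hfix

theorem trans : ∀ i, ∃ x, ψ x z = i :=
  trans_pt (P := cert) (FIN := tFIN) (LAB := tLAB) (L := 7) ψ z rfl (fun k _ => el_sq k) hψ (loop_all link_ok) (loop_all lab_ok)

theorem coatom : IsCoatom HH :=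
  isCoatom_of_colours ψ z HH hfix stab trans col mm (hcol_of_base ψ HH col base hb) hm harith rfl
    (by decide)

end Cfsg.Agent.Lib.Helper19.OrdSuz.CX
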