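import Cfsg.Agent.Lib.Helper19.Suzb.Main
import Cfsg.Agent.Lib.Helper19.TC2P

/-! Generated file: certificates for the order of a presented group. -/

set_option autoImplicit false
set_option maxRecDepth 1000000

namespace Cfsg.Agent.Lib.Helper19.OrdSuz.CY

open Cfsg.Agent.Lib.Helper19.TCS (evn evn_rot evn_rev evn_pair AllS forall_of_allS lift_rels mk_eq_lift cox_swap shapeI prod_rep index_of_equiv orbit_ncard orbit_image ncard_interval fix_of_closure RC)
open Cfsg.Agent.Lib.Helper19.TC2
open Cfsg.Spor Cfsg.Agent.Lib.Helper19.PresSuz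
open Cfsg.Agent.Lib.Helper19.Suzb


theorem cl_0 : loop (chkCl cB sgw 1 487) 1 486 = true := by decide +kernel

theorem re_0 : loop (chkRe cB sgw tHP 20 1048575 1) 2 485 = true := by decide +kernel

theorem orb_0 : {i | ∃ h ∈ HH, ψ h ⟨1, by decide⟩ = i} = {i : Fin cB.N | 1 ≤ i.1 ∧ i.1 < 487} := by
  rw [hH]
  exact orbit_set_of_checks (L := 7) ψ hψ hsg h1 h2 ⟨1, by decide⟩ rfl (by decide) cl_0 re_0

theorem cl_1 : loop (chkCl cB sgw 487 8992) 487 8505 = true := by decide +kernel

theorem re_1 : loop (chkRe cB sgw tHP 20 1048575 487) 488 8504 = true := by decide +kernel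

theorem orb_1 : {i | ∃ h ∈ HH, ψ h ⟨487, by decide⟩ = i} = {i : Fin cB.N | 487 ≤ i.1 ∧ i.1 < 8992} := by
  rw [hH]
  exact orbit_set_of_checks (L := 7) ψ hψ hsg h1 h2 ⟨487, by decide⟩ rfl (by decide) cl_1 re_1

theorem cl_2 : loop (chkCl cB sgw 8992 22600) 8992 13608 = true := by decide +kernel

theorem re_2 : loop (chkRe cB sgw tHP 20 1048575 8992) 8993 13607 = true := by decide +kernel

theorem orb_2 : {i | ∃ h ∈ HH, ψ h ⟨8992, by decide⟩ = i} = {i : Fin cB.N | 8992 ≤ i.1 ∧ i.1 < 22600} := by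
  rw [hH]
  exact orbit_set_of_checks (L := 7) ψ hψ hsg h1 h2 ⟨8992, by decide⟩ rfl (by decide) cl_2 re_2

theorem cl_3 : loop (chkCl cB sgw 22600 22880) 22600 280 = true := by decide +kernel

theorem re_3 : loop (chkRe cB sgw tHP 20 1048575 22600) 22601 279 = true := by decide +kernel

theorem orb_3 : {i | ∃ h ∈ HH, ψ h ⟨22600, by decide⟩ = i} = {i : Fin cB.N | 22600 ≤ i.1 ∧ i.1 < 22880} := by
  rw [hH]
  exact orbit_set_of_checks (L := 7) ψ hψ hsg h1 h2 ⟨22600, by decide⟩ rfl (by decide) cl_3 re_3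

def cn (i : ℕ) : ℕ := if i < 1 then 0 else if i < 487 then 1 else if i < 8992 then 2 else if i < 22600 then 3 else 4

theorem cn_lt (i : ℕ) : cn i < 5 := by
  unfold cn
  split_ifs <;> omega

def col (i : Fin cB.N) : Fin 5 := ⟨cn i.1, cn_lt i.1⟩

def mm : Fin 5 → ℕ := ![1, 486, 8505, 13608, 280]

def base : Fin 5 → Fin cB.N := ![⟨0, by decide⟩, ⟨1, by decide⟩, ⟨487, by decide⟩, ⟨8992, by decide⟩, ⟨22600, by decide⟩]

theorem hb : ∀ i : Fin cB.N, ∃ h ∈ HH, ψ h (base (col i)) = i := by
  intro i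
  have hi : i.1 < 22880 := i.2
  rcases Nat.lt_or_ge i.1 1 with h0 | h0
  · have e : col i = ⟨0, by decide⟩ := Fin.ext (by show cn i.1 = 0; unfold cn; split_ifs <;> omega)
    rw [e]
    exact ⟨1, HH.one_mem, by rw [map_one]; apply Fin.ext; show 0 = i.1; omega⟩
  rcases Nat.lt_or_ge i.1 487 with h1 | h1
  · have e : col i = ⟨1, by decide⟩ := Fin.ext (by show cn i.1 = 1; unfold cn; split_ifs <;> omega)
    rw [e]
    have hm : i ∈ {i : Fin cB.N | 1 ≤ i.1 ∧ i.1 < 487} := ⟨by omega, by omega⟩
    rw [← orb_0] at hm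
    exact hm
  rcases Nat.lt_or_ge i.1 8992 with h2 | h2
  · have e : col i = ⟨2, by decide⟩ := Fin.ext (by show cn i.1 = 2; unfold cn; split_ifs <;> omega)
    rw [e]
    have hm : i ∈ {i : Fin cB.N | 487 ≤ i.1 ∧ i.1 < 8992} := ⟨by omega, by omega⟩
    rw [← orb_1] at hm
    exact hm
  rcases Nat.lt_or_ge i.1 22600 with h3 | h3
  · have e : col i = ⟨3, by decide⟩ := Fin.ext (by show cn i.1 = 3; unfold cn; split_ifs <;> omega)
    rw [e]
    have hm : i ∈ {i : Fin cB.N | 8992 ≤ i.1 ∧ i.1 < 22600} := ⟨by omega, by omega⟩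
    rw [← orb_2] at hm
    exact hm
  have e : col i = ⟨4, by decide⟩ := Fin.ext (by show cn i.1 = 4; unfold cn; split_ifs <;> omega)
  rw [e]
  have hm : i ∈ {i : Fin cB.N | 22600 ≤ i.1 ∧ i.1 < 22880} := ⟨by omega, by omega⟩
  rw [← orb_3] at hm
  exact hm

theorem hm : ∀ c, (Finset.univ.filter (fun i => col i = c)).card = mm c := by
  rintro ⟨c, hc⟩
  interval_cases c
  · exact card_col (lo := 0) (hi := 1) (by decide) (fun i => by
      have hi : i.1 < 22880 := i.2
      rw [Fin.ext_iff]
      show cn i.1 = 0 ↔ _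
      unfold cn
      constructor
      · intro h
        split_ifs at h <;> omega
      · intro h
        split_ifs <;> omega)
  · exact card_col (lo := 1) (hi := 487) (by decide) (fun i => by
      have hi : i.1 < 22880 := i.2
      rw [Fin.ext_iff]
      show cn i.1 = 1 ↔ _
      unfold cn
      constructor
      · intro h
        split_ifs at h <;> omega
      · intro h
        split_ifs <;> omega)
  · exact card_col (lo := 487) (hi := 8992) (by decide) (fun i => by
      have hi : i.1 < 22880 := i.2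
      rw [Fin.ext_iff]
      show cn i.1 = 2 ↔ _
      unfold cn
      constructor
      · intro h
        split_ifs at h <;> omega
      · intro h
        split_ifs <;> omega)
  · exact card_col (lo := 8992) (hi := 22600) (by decide) (fun i => by
      have hi : i.1 < 22880 := i.2
      rw [Fin.ext_iff]
      show cn i.1 = 3 ↔ _
      unfold cn
      constructor
      · intro h
        split_ifs at h <;> omega
      · intro h
        split_ifs <;> omega)
  · exact card_col (lo := 22600) (hi := 22880) (by decide) (fun i => by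
      have hi : i.1 < 22880 := i.2
      rw [Fin.ext_iff]
      show cn i.1 = 4 ↔ _
      unfold cn
      constructor
      · intro h
        split_ifs at h <;> omega
      · intro h
        split_ifs <;> omega)

theorem harith : ∀ S : Finset (Fin 5), col z ∈ S → (∑ c ∈ S, mm c) ∣ cB.N →
    S = {col z} ∨ S = Finset.univ := by decide +kernel

theorem stab : ∀ x, ψ x z = z → x ∈ HH :=
  stab_mem (P := cert) (FIN := tFIN) (L := 7) ψ z rfl (fun k _ => el_sq k) hψ hcov (loop_all link_ok) hfix

theorem trans : ∀ i, ∃ x, ψ x z = i :=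
  trans_pt (P := cert) (FIN := tFIN) (LAB := tLAB) (L := 7) ψ z rfl (fun k _ => el_sq k) hψ (loop_all link_ok) (loop_all lab_ok)

theorem coatom : IsCoatom HH :=
  isCoatom_of_colours ψ z HH hfix stab trans col mm (hcol_of_base ψ HH col base hb) hm harith rfl
    (by decide)

end Cfsg.Agent.Lib.Helper19.OrdSuz.CY
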