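import Cfsg.Agent.Lib.Helper19.OrdSuz.U0
import Cfsg.Agent.Lib.Helper19.OrdSuz.U1
import Cfsg.Agent.Lib.Helper19.OrdSuz.U2
import Cfsg.Agent.Lib.Helper19.OrdSuz.U3
import Cfsg.Agent.Lib.Helper19.OrdSuz.U4
import Cfsg.Agent.Lib.Helper19.OrdSuz.LY
import Cfsg.Agent.Lib.Helper19.OrdSuz.LX
import Cfsg.Agent.Lib.Helper19.OrdSuz.CX
import Cfsg.Agent.Lib.Helper19.OrdSuz.CY

/-! Generated file: certificates for the order of a presented group. -/

set_option autoImplicit false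
set_option maxRecDepth 1000000

namespace Cfsg.Agent.Lib.Helper19.OrdSuz

open Cfsg.Agent.Lib.Helper19.TCS (evn evn_rot evn_rev evn_pair AllS forall_of_allS lift_rels mk_eq_lift cox_swap shapeI prod_rep index_of_equiv orbit_ncard orbit_image ncard_interval fix_of_closure RC)
open Cfsg.Agent.Lib.Helper19.TC2
open Cfsg.Spor Cfsg.Agent.Lib.Helper19.PresSuz
open Cfsg.Agent.Lib.Helper19


theorem fin_nil : Finite (KK el []) := by
  rw [KK_nil]
  infer_instance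

theorem card_nil : Nat.card (KK el []) = 1 := by
  rw [KK_nil]
  exact Subgroup.card_bot

theorem ub_all : Finite (KK el [0, 1, 2, 3, 4, 5]) ∧ Nat.card (KK el [0, 1, 2, 3, 4, 5]) ≤ 251596800 := by
  obtain ⟨f4, u4⟩ := U4.ub fin_nil
  obtain ⟨f3, u3⟩ := U3.ub f4
  obtain ⟨f2, u2⟩ := U2.ub f3
  obtain ⟨f1, u1⟩ := U1.ub f2
  obtain ⟨f0, u0⟩ := U0.ub f1
  refine ⟨f0, ?_⟩
  have := card_nil
  omega

theorem fin_le (J : List ℕ) (h : ∀ k ∈ J, k ∈ [0, 1, 2, 3, 4, 5]) : Finite (KK el J) :=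
  haveI := ub_all.1
  Finite.of_injective _ (Subgroup.inclusion_injective (KK_mono el h))

theorem chain : Nat.card (KK el [0, 1, 2, 3, 4, 5]) = 251596800 ∧
    Nat.card (KK el [0, 1, 2, 3, 4, 5]) ≤ 2080 * Nat.card (KK el [1, 2, 3, 5]) ∧
    Nat.card (KK el [1, 2, 3, 5]) ≤ 56 * Nat.card (KK el [1, 2, 3]) ∧
    Nat.card (KK el [1, 2, 3]) ≤ 135 * Nat.card (KK el [2, 3]) ∧
    Nat.card (KK el [2, 3]) ≤ 8 * Nat.card (KK el [3]) ∧
    Nat.card (KK el [3]) ≤ 2 * Nat.card (KK el []) := by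
  haveI g0 : Finite (KK el [0, 1, 2, 3, 4, 5]) := fin_le _ (by decide)
  have l0 := LY.lb0.card_le
  haveI g1 : Finite (KK el [1, 2, 3, 5]) := fin_le _ (by decide)
  have l1 := LX.lb1.card_le
  haveI g2 : Finite (KK el [1, 2, 3]) := fin_le _ (by decide)
  have l2 := LY.lb2.card_le
  haveI g3 : Finite (KK el [2, 3]) := fin_le _ (by decide)
  have l3 := LX.lb3.card_le
  haveI g4 : Finite (KK el [3]) := fin_le _ (by decide)
  have l4 := LX.lb4.card_le
  have u := ub_all.2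
  have c := card_nil
  refine ⟨by omega, by omega, by omega, by omega, by omega, by omega⟩

theorem ker_top (x : Cfsg.Spor.Suz) (hx : x ∈ KK el [0, 1, 2, 3, 4, 5]) (hX : Suzc.ψ x = 1) (hY : Suzb.ψ x = 1) : x = 1 := by
  obtain ⟨_, t0, t1, t2, t3, t4⟩ := chain
  haveI g0 : Finite (KK el [0, 1, 2, 3, 4, 5]) := fin_le _ (by decide)
  have m0 := LY.lb0.ker_le (by decide) t0 x hx hY
  haveI g1 : Finite (KK el [1, 2, 3, 5]) := fin_le _ (by decide)
  have m1 := LX.lb1.ker_le (by decide) t1 x m0 hX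
  haveI g2 : Finite (KK el [1, 2, 3]) := fin_le _ (by decide)
  have m2 := LY.lb2.ker_le (by decide) t2 x m1 hY
  haveI g3 : Finite (KK el [2, 3]) := fin_le _ (by decide)
  have m3 := LX.lb3.ker_le (by decide) t3 x m2 hX
  haveI g4 : Finite (KK el [3]) := fin_le _ (by decide)
  have m4 := LX.lb4.ker_le (by decide) t4 x m3 hX
  rw [KK_nil] at m4
  exact Subgroup.mem_bot.1 m4

theorem HH_eq : Suzc.HH = KK el [0, 1, 2, 3, 4, 5] := by
  rw [Suzc.hH]
  unfold KK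
  congr 1
  ext g
  constructor
  · rintro ⟨s, hs, rfl⟩
    simp only [Suzc.SS, Set.mem_insert_iff, Set.mem_singleton_iff] at hs
    rcases hs with rfl | rfl | rfl | rfl | rfl | rfl
    · exact ⟨0, by decide, rfl⟩
    · exact ⟨1, by decide, rfl⟩
    · exact ⟨2, by decide, rfl⟩
    · exact ⟨3, by decide, rfl⟩
    · exact ⟨4, by decide, rfl⟩
    · exact ⟨5, by decide, rfl⟩
  · rintro ⟨k, hk, rfl⟩
    simp only [List.mem_cons, List.not_mem_nil, or_false] at hk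
    rcases hk with rfl | rfl | rfl | rfl | rfl | rfl
    · exact ⟨FreeGroup.of .a, by simp [Suzc.SS], rfl⟩
    · exact ⟨FreeGroup.of .b, by simp [Suzc.SS], rfl⟩
    · exact ⟨FreeGroup.of .c, by simp [Suzc.SS], rfl⟩
    · exact ⟨FreeGroup.of .d, by simp [Suzc.SS], rfl⟩
    · exact ⟨FreeGroup.of .e, by simp [Suzc.SS], rfl⟩
    · exact ⟨FreeGroup.of .f, by simp [Suzc.SS], rfl⟩

theorem card_eq : Nat.card Cfsg.Spor.Suz = 448345497600 := by
  rw [← Subgroup.card_mul_index Suzc.HH, Suzc.index_eq, HH_eq, chain.1]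

theorem joint (x : Cfsg.Spor.Suz) (hX : Suzc.ψ x = 1) (hY : Suzb.ψ x = 1) : x = 1 := by
  apply ker_top x _ hX hY
  rw [← HH_eq]
  apply CX.stab
  rw [hX]
  rfl

end Cfsg.Agent.Lib.Helper19.OrdSuz
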